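import Mathlib
import Cfsg.Prelude.Def_PLocal
import Cfsg.Agent.Lib.Cores
import Cfsg.Agent.Lib.GenFitting
import Cfsg.Agent.PLocal.ThompsonJ
import Cfsg.Agent.PLocal.ReplacementElem
import Cfsg.Agent.PLocal.StableClosure
import Cfsg.Agent.PLocal.ActionStable

/-!
# Maximal elementary abelian subgroups of a `p`-subgroup, relative versions

* `MaxEl p P A`: `A` is an elementary abelian subgroup of `P` of largest order.
* `MaxEl.le_of_no_quadratic`: Thompson replacement: if no element of `P` acts quadratically and nontrivially on the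
  elementary abelian normal subgroup `V` of `P` (`p` odd), then `V` lies in every `A` with `MaxEl p P A`.
* `zz p P`: the intersection of all `A` with `MaxEl p P A`; it is elementary abelian and normalized by `N(P)`.
* `le_pCore_of_mod`: if `C = C_M(Z)` (`Z` normal) normalizes the `p`-subgroup `Q` and `R ≤ Q` lies in `O_p` modulo `C`,
  then `R ≤ O_p(M)`.
-/

set_option autoImplicit false

namespace Cfsg.Agent.H443.MaxElem

open Subgroup Cfsg Cfsg.Agent.Lib.Cores Cfsg.Agent.Lib.GenFitting
open Cfsg.Agent.PLocal.ThompsonJ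
open scoped commutatorElement

variable {G : Type*} [Group G]

/-- `A` is an elementary abelian subgroup of `P` of largest order. -/
def MaxEl (p : ℕ) (P A : Subgroup G) : Prop :=
  A ≤ P ∧ IsElementaryAbelian p A ∧
    ∀ B : Subgroup G, B ≤ P → IsElementaryAbelian p B → Nat.card B ≤ Nat.card A

theorem exists_maxEl [Finite G] (p : ℕ) (P : Subgroup G) : ∃ A, MaxEl p P A := by
  obtain ⟨A, hA, hmax⟩ := Set.exists_max_image {A : Subgroup G | A ≤ P ∧ IsElementaryAbelian p A}
    (fun A => Nat.card A) (Set.toFinite _) ⟨⊥, bot_le, isElementaryAbelian_bot G p⟩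
  exact ⟨A, hA.1, hA.2, fun B hB hB' => hmax B ⟨hB, hB'⟩⟩

theorem MaxEl.of_card_le {p : ℕ} {P A B : Subgroup G} (hA : MaxEl p P A) (hB : B ≤ P)
    (hB' : IsElementaryAbelian p B) (h : Nat.card A ≤ Nat.card B) : MaxEl p P B :=
  ⟨hB, hB', fun C hC hC' => (hA.2.2 C hC hC').trans h⟩

theorem MaxEl.mono {p : ℕ} {P P' A : Subgroup G} (hA : MaxEl p P A) (hA' : A ≤ P') (h : P' ≤ P) :
    MaxEl p P' A := ⟨hA', hA.2.1, fun B hB hB' => hA.2.2 B (hB.trans h) hB'⟩

/-- The join of two commuting elementary abelian subgroups is elementary abelian. -/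
theorem isElementaryAbelian_sup {p : ℕ} {A V : Subgroup G} (hA : IsElementaryAbelian p A)
    (hV : IsElementaryAbelian p V) (h : A ≤ centralizer (V : Set G)) :
    IsElementaryAbelian p (A ⊔ V : Subgroup G) := by
  rw [isElementaryAbelian_iff] at hA hV ⊢
  have hVn : A ≤ normalizer (V : Set G) := h.trans (centralizer_le_normalizer _)
  have hmem : ∀ x ∈ A ⊔ V, ∃ a ∈ A, ∃ v ∈ V, x = a * v := by
    intro x hx
    have h2 : x ∈ ((A ⊔ V : Subgroup G) : Set G) := hx
    rw [Subgroup.coe_mul_of_left_le_normalizer_right _ _ hVn] at h2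
    obtain ⟨a, ha, v, hv, rfl⟩ := h2
    exact ⟨a, ha, v, hv, rfl⟩
  have hav : ∀ a ∈ A, ∀ v ∈ V, v * a = a * v := fun a ha v hv => mem_centralizer_iff.1 (h ha) v hv
  constructor
  · intro x hx y hy
    obtain ⟨a, ha, v, hv, rfl⟩ := hmem x hx
    obtain ⟨b, hb, w, hw, rfl⟩ := hmem y hy
    calc a * v * (b * w) = a * (v * b) * w := by group
      _ = a * (b * v) * w := by rw [hav b hb v hv]
      _ = (a * b) * (v * w) := by group
      _ = (b * a) * (w * v) := by rw [hA.1 a ha b hb, hV.1 v hv w hw]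
      _ = b * (a * w) * v := by group
      _ = b * (w * a) * v := by rw [hav a ha w hw]
      _ = b * w * (a * v) := by group
  · intro x hx
    obtain ⟨a, ha, v, hv, rfl⟩ := hmem x hx
    have hc : Commute a v := (hav a ha v hv).symm
    rw [hc.mul_pow, hA.2 a ha, hV.2 v hv, one_mul]

/-- A largest elementary abelian subgroup centralizing `V` contains `V`. -/
theorem MaxEl.le_of_centralizer [Finite G] {p : ℕ} {P A V : Subgroup G} (hA : MaxEl p P A)
    (hVP : V ≤ P) (hV : IsElementaryAbelian p V) (h : A ≤ centralizer (V : Set G)) : V ≤ A := by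
  have h1 := hA.2.2 (A ⊔ V) (sup_le hA.1 hVP) (isElementaryAbelian_sup hA.2.1 hV h)
  have h2 : A = A ⊔ V := Subgroup.eq_of_le_of_card_ge le_sup_left h1
  rw [h2]; exact le_sup_right

/-- **Thompson replacement**: `p` odd, `V` an elementary abelian subgroup of the `p`-group `P`, normalized by `P`; if
every element of `P` acting quadratically on `V` centralizes `V`, then `V` lies in every elementary abelian subgroup of
`P` of largest order. -/
theorem MaxEl.le_of_no_quadratic [Finite G] {p : ℕ} [Fact p.Prime] (hp : p ≠ 2)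
    {P V : Subgroup G} (hP : IsPGroup p P) (hVP : V ≤ P) (hV : IsElementaryAbelian p V)
    (hPV : P ≤ normalizer (V : Set G))
    (hq : ∀ a ∈ P, ⁅⁅V, zpowers a⁆, zpowers a⁆ = ⊥ → a ∈ centralizer (V : Set G))
    {A : Subgroup G} (hA : MaxEl p P A) : V ≤ A := by
  refine hA.le_of_centralizer hVP hV ?_
  by_contra hAV
  obtain ⟨B, ⟨hB, hBV⟩, hmax⟩ := Set.exists_max_image
    {B : Subgroup G | MaxEl p P B ∧ ¬ B ≤ centralizer (V : Set G)}
    (fun B => Nat.card (B ⊓ V : Subgroup G)) (Set.toFinite _) ⟨A, hA, hAV⟩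
  -- `V` does not normalize `B`
  have hVB : ¬ V ≤ normalizer (B : Set G) := by
    intro h
    apply hBV
    intro b hb
    refine hq b (hB.1 hb) ?_
    have h1 : zpowers b ≤ B := zpowers_le.2 hb
    have h2 : ⁅V, B⁆ ≤ B := le_normalizer_iff_commutator_le_right.1 h
    have h3 : ⁅B, B⁆ = ⊥ := by
      rw [commutator_eq_bot_iff_le_centralizer]
      intro x hx
      rw [mem_centralizer_iff]
      intro y hy
      exact isElementaryAbelian_comm hB.2.1 hy hx
    rw [eq_bot_iff, ← h3]
    exact commutator_mono ((commutator_mono le_rfl h1).trans h2) h1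
  have hVV : ⁅V, V⁆ = ⊥ := by
    rw [commutator_eq_bot_iff_le_centralizer]
    intro x hx
    rw [mem_centralizer_iff]
    intro y hy
    exact isElementaryAbelian_comm hV hy hx
  obtain ⟨B', hB'le, hB'e, hcard, hlt, hB'n⟩ := PLocal.ReplacementElem.exists_replacement hp
    (A := B) (B := V) (hP.to_le (sup_le hB.1 hVP)) (hB.1.trans hPV) hB.2.1
    (by rw [hVV, commutator_bot_left]) (by rw [hVV, commutator_bot_left]) hVB
  have hB'P : B' ≤ P := hB'le.trans (sup_le hB.1 hVP)
  have hB'm : MaxEl p P B' := hB.of_card_le hB'P hB'e hcard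
  by_cases hc : B' ≤ centralizer (V : Set G)
  · exact hVB ((hB'm.le_of_centralizer hVP hV hc).trans hB'n)
  · have h1 := hmax B' ⟨hB'm, hc⟩
    have h2 : Nat.card (B ⊓ V : Subgroup G) < Nat.card (B' ⊓ V : Subgroup G) := by
      refine lt_of_le_of_ne (Subgroup.card_le_of_le hlt.le) fun h => ?_
      exact hlt.ne (Subgroup.eq_of_le_of_card_ge hlt.le h.ge)
    exact absurd h1 (not_le.2 h2)

/-- The intersection of the elementary abelian subgroups of `P` of largest order. -/
def zz (p : ℕ) (P : Subgroup G) : Subgroup G := sInf {A | MaxEl p P A}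

theorem zz_le_of_maxEl {p : ℕ} {P A : Subgroup G} (hA : MaxEl p P A) : zz p P ≤ A := sInf_le hA

theorem zz_le [Finite G] (p : ℕ) (P : Subgroup G) : zz p P ≤ P := by
  obtain ⟨A, hA⟩ := exists_maxEl p P
  exact (zz_le_of_maxEl hA).trans hA.1

theorem zz_isElementaryAbelian [Finite G] (p : ℕ) (P : Subgroup G) :
    IsElementaryAbelian p (zz p P) := by
  obtain ⟨A, hA⟩ := exists_maxEl p P
  exact isElementaryAbelian_mono hA.2.1 (zz_le_of_maxEl hA)

theorem le_zz {p : ℕ} {P V : Subgroup G} (h : ∀ A, MaxEl p P A → V ≤ A) : V ≤ zz p P :=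
  le_sInf h

theorem map_conj_map (M : Subgroup G) (g h : G) :
    (M.map (MulAut.conj g).toMonoidHom).map (MulAut.conj h).toMonoidHom =
      M.map (MulAut.conj (h * g)).toMonoidHom := by
  rw [Subgroup.map_map]
  congr 1
  ext x
  simp [mul_assoc]

theorem map_conj_one (M : Subgroup G) : M.map (MulAut.conj (1 : G)).toMonoidHom = M := by
  ext x
  simp

theorem MaxEl.map_conj {p : ℕ} {P A : Subgroup G} (hA : MaxEl p P A) {g : G}
    (hg : g ∈ normalizer (P : Set G)) : MaxEl p P (A.map (MulAut.conj g).toMonoidHom) := by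
  have hgP : P.map (MulAut.conj g).toMonoidHom = P := mem_normalizer_iff_map_conj_eq.1 hg
  refine hA.of_card_le ?_ (isElementaryAbelian_map hA.2.1 _) ?_
  · rw [← hgP]; exact Subgroup.map_mono hA.1
  · rw [card_map_injective _ (MulAut.conj g).injective]

theorem normalizer_le_normalizer_zz (p : ℕ) (P : Subgroup G) :
    normalizer (P : Set G) ≤ normalizer (zz p P : Set G) := by
  have key : ∀ g ∈ normalizer (P : Set G), (zz p P).map (MulAut.conj g).toMonoidHom ≤ zz p P := by
    intro g hg
    refine le_zz fun A hA => ?_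
    have h1 := zz_le_of_maxEl (hA.map_conj (inv_mem hg))
    have h2 := Subgroup.map_mono (f := (MulAut.conj g).toMonoidHom) h1
    rwa [map_conj_map, mul_inv_cancel, map_conj_one] at h2
  intro g hg
  rw [mem_normalizer_iff_map_conj_eq]
  refine le_antisymm (key g hg) ?_
  have h1 := Subgroup.map_mono (f := (MulAut.conj g).toMonoidHom) (key g⁻¹ (inv_mem hg))
  rwa [map_conj_map, mul_inv_cancel, map_conj_one] at h1

/-- If all largest elementary abelian subgroups of `P` lie in `P' ≤ P`, then `zz p P' = zz p P`. -/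
theorem zz_eq_of_le [Finite G] {p : ℕ} {P P' : Subgroup G} (hPP : P' ≤ P)
    (h : ∀ A, MaxEl p P A → A ≤ P') : zz p P' = zz p P := by
  obtain ⟨A₀, hA₀⟩ := exists_maxEl p P
  have hiff : ∀ A : Subgroup G, MaxEl p P' A ↔ MaxEl p P A := by
    intro A
    constructor
    · intro hA
      exact hA₀.of_card_le (hA.1.trans hPP) hA.2.1 (hA.2.2 A₀ (h A₀ hA₀) hA₀.2.1)
    · intro hA
      exact hA.mono (h A hA) hPP
  rw [zz, zz]
  congr 1
  ext A
  exact hiff A

/-! ### Minimal normal `p`-subgroups -/

/-- A minimal normal subgroup which is a `p`-group is elementary abelian. -/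
theorem isElementaryAbelian_of_minimal [Finite G] {p : ℕ} [Fact p.Prime] {V : Subgroup G}
    (hV : V.Normal) (hVp : IsPGroup p V) (hV1 : V ≠ ⊥)
    (hmin : ∀ N : Subgroup G, N.Normal → N ≤ V → N = ⊥ ∨ N = V) : IsElementaryAbelian p V := by
  -- the centre of `V`
  have hnil : Group.IsNilpotent V := hVp.isNilpotent
  have hVnt : Nontrivial V := (Subgroup.nontrivial_iff_ne_bot V).2 hV1
  set Z : Subgroup G := V ⊓ centralizer (V : Set G) with hZ
  have hZn : Z.Normal := by rw [hZ]; infer_instance
  have hZ1 : Z ≠ ⊥ := by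
    have h1 := Group.IsNilpotent.center_ne_bot (G := V)
    intro h
    apply h1
    rw [eq_bot_iff]
    intro z hz
    have h2 : (z : G) ∈ Z := by
      refine ⟨z.2, mem_centralizer_iff.2 fun y hy => ?_⟩
      exact congrArg Subtype.val (mem_center_iff.1 hz ⟨y, hy⟩)
    rw [h, mem_bot] at h2
    rw [mem_bot]
    exact Subtype.ext h2
  have hZV : Z = V := (hmin Z hZn inf_le_left).resolve_left hZ1
  have hcomm : ∀ x ∈ V, ∀ y ∈ V, x * y = y * x := by
    intro x hx y hy
    rw [← hZV] at hy
    exact mem_centralizer_iff.1 hy.2 x hx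
  -- elements of order dividing `p`
  have hOn : (omegaOne p V).Normal := PLocal.StableClosure.omegaOne_normal p V hV
  have hO1 : omegaOne p V ≠ ⊥ := by
    have hdvd : p ∣ Nat.card V := by
      obtain ⟨n, hn, hn'⟩ := hVp.nontrivial_iff_card.1 hVnt
      rw [hn']
      exact dvd_pow_self p hn.ne'
    obtain ⟨x, hx⟩ := exists_prime_orderOf_dvd_card' p hdvd
    intro h
    have h1 : (x : G) ∈ omegaOne p V := by
      refine PLocal.StableClosure.mem_omegaOne_of_pow_eq_one x.2 ?_
      have h2 := pow_orderOf_eq_one x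
      rw [hx] at h2
      exact congrArg Subtype.val h2
    rw [h, mem_bot] at h1
    have h3 : x = 1 := Subtype.ext h1
    rw [h3, orderOf_one] at hx
    exact (Fact.out : p.Prime).one_lt.ne hx
  have hOV : omegaOne p V = V :=
    (hmin _ hOn (PLocal.StableClosure.omegaOne_le p V)).resolve_left hO1
  have := PLocal.ActionStable.isElementaryAbelian_omegaOne p V hcomm
  rwa [hOV] at this

end Cfsg.Agent.H443.MaxElem
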