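import Mathlib
import Cfsg.Agent.H443.MaxElem
import Cfsg.Agent.Lib.SubnormalJoin
import Cfsg.Agent.Lib.NormalAbelian
import Cfsg.Agent.Lib.LocalCore
import Cfsg.Agent.PLocal.StableNormal
import Cfsg.Agent.PLocal.ActionStable
import Cfsg.Agent.Transfer.ThompsonFactor

/-!
# Primitive pairs of characteristic `p` and `p`-stability (`p` odd)

Main result `false_of_stable`: if `(M₁, M₂)` is a primitive pair of characteristic `p` (`p` odd), then `M₁` and `M₂`
are not both `p`-stable in the action sense.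
-/

set_option autoImplicit false

namespace Cfsg.Agent.H443.PrimPair

open Subgroup Cfsg Cfsg.Agent.Lib.Cores Cfsg.Agent.Lib.GenFitting
open Cfsg.Agent.PLocal.ThompsonJ Cfsg.Agent.H443.MaxElem
open scoped commutatorElement

/-- `C` a normal subgroup of `M` normalizing the `p`-subgroup `Q`, and `R ≤ Q` with image in `O_p(M / C)`: then
`R ≤ O_p(M)`. -/
theorem le_pCore_of_mod {M : Type*} [Group M] [Finite M] {p : ℕ} [Fact p.Prime] (C : Subgroup M)
    [hC : C.Normal] {Q R : Subgroup M} (hQ : IsPGroup p Q) (hCQ : C ≤ normalizer (Q : Set M))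
    (hRQ : R ≤ Q) (hR : ∀ r ∈ R, (QuotientGroup.mk r : M ⧸ C) ∈ pCore p (M ⧸ C)) :
    R ≤ pCore p M := by
  have h1 : C ⊓ Q ≤ pCore p M := by
    refine le_pCore_of_normal_in_normal hC inf_le_left ?_ (hQ.to_le inf_le_right)
    intro c hc
    rw [mem_normalizer_iff]
    intro x
    constructor
    · rintro ⟨h1, h2⟩
      exact ⟨C.mul_mem (C.mul_mem hc h1) (C.inv_mem hc), (mem_normalizer_iff.1 (hCQ hc) x).1 h2⟩
    · rintro ⟨h1, h2⟩
      refine ⟨?_, (mem_normalizer_iff.1 (hCQ hc) x).2 h2⟩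
      have h3 := C.mul_mem (C.mul_mem (C.inv_mem hc) h1) hc
      have e : c⁻¹ * (c * x * c⁻¹) * c = x := by group
      rwa [e] at h3
  set O : Subgroup M := pCore p M with hO
  set f : M →* M ⧸ O := QuotientGroup.mk' O with hf
  have hfs : Function.Surjective f := QuotientGroup.mk'_surjective O
  set Cb : Subgroup (M ⧸ O) := C.map f with hCb
  have hCbn : Cb.Normal := hC.map f hfs
  set F : Subgroup M := (pCore p (M ⧸ C)).comap (QuotientGroup.mk' C) ⊓
    (centralizer (Cb : Set (M ⧸ O))).comap f with hF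
  have hFn : F.Normal := by rw [hF]; infer_instance
  set Fb : Subgroup (M ⧸ O) := F.map f with hFb
  have hFbn : Fb.Normal := hFn.map f hfs
  have hFbC : Fb ≤ centralizer (Cb : Set (M ⧸ O)) := by
    rw [hFb, Subgroup.map_le_iff_le_comap]
    exact inf_le_right
  have hnil : Group.IsNilpotent Fb := by
    have hNn : (Cb.subgroupOf Fb).Normal := inferInstance
    have hpq : IsPGroup p (Fb ⧸ Cb.subgroupOf Fb) := by
      intro x
      obtain ⟨x, rfl⟩ := QuotientGroup.mk'_surjective _ x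
      obtain ⟨_, y, hy, rfl⟩ := x
      obtain ⟨k, hk⟩ := pCore_isPGroup (G := M ⧸ C) p ⟨QuotientGroup.mk' C y, hy.1⟩
      refine ⟨k, ?_⟩
      have hk' : y ^ p ^ k ∈ C := by
        rw [← QuotientGroup.eq_one_iff]
        exact congrArg Subtype.val hk
      rw [← map_pow]
      refine (QuotientGroup.eq_one_iff _).2 ?_
      rw [mem_subgroupOf]
      exact ⟨y ^ p ^ k, hk', by simp⟩
    have hqn : Group.IsNilpotent (Fb ⧸ Cb.subgroupOf Fb) := hpq.isNilpotent
    refine Subgroup.isNilpotent_of_ker_le_center (QuotientGroup.mk' (Cb.subgroupOf Fb)) ?_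
    rw [QuotientGroup.ker_mk']
    intro x hx
    rw [mem_subgroupOf] at hx
    rw [mem_center_iff]
    intro y
    exact Subtype.ext ((mem_centralizer_iff.1 (hFbC y.2) _ hx).symm)
  intro r hr
  have hrC : ∀ c ∈ C, ⁅c, r⁆ ∈ O := by
    intro c hc
    apply h1
    constructor
    · rw [commutatorElement_def]
      have e : c * r * c⁻¹ * r⁻¹ = c * (r * c⁻¹ * r⁻¹) := by group
      rw [e]
      exact C.mul_mem hc (hC.conj_mem _ (C.inv_mem hc) r)
    · rw [commutatorElement_def]
      exact Q.mul_mem ((mem_normalizer_iff.1 (hCQ hc) r).1 (hRQ hr)) (Q.inv_mem (hRQ hr))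
  have hrF : r ∈ F := by
    refine mem_inf.2 ⟨hR r hr, ?_⟩
    rw [mem_comap, mem_centralizer_iff]
    rintro _ ⟨c, hc, rfl⟩
    rw [← commutatorElement_eq_one_iff_mul_comm, ← map_commutatorElement]
    exact (QuotientGroup.eq_one_iff _).2 (hrC c hc)
  obtain ⟨k, hk⟩ := hQ ⟨r, hRQ hr⟩
  have hk' : r ^ p ^ k = 1 := congrArg Subtype.val hk
  have h2 : f r ∈ pCore p (M ⧸ O) := by
    refine mem_pCore_of_mem_nilpotent_normal hFbn hnil ⟨r, hrF, rfl⟩ (k := k) ?_
    rw [← map_pow, hk', map_one]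
  have h3 : pCore p (M ⧸ O) = ⊥ := pCore_quotient_pCore p
  rw [h3, mem_bot] at h2
  exact (QuotientGroup.eq_one_iff _).1 h2

/-- For a minimal normal `p`-subgroup `V` of `M` one has `O_p(M / C_M(V)) = 1`. -/
theorem pCore_quotient_centralizer_of_minimal {M : Type*} [Group M] [Finite M] {p : ℕ}
    [Fact p.Prime] {V : Subgroup M} (hV : V.Normal) (hVp : IsPGroup p V) (hV1 : V ≠ ⊥)
    (hmin : ∀ N : Subgroup M, N.Normal → N ≤ V → N = ⊥ ∨ N = V) :
    pCore p (M ⧸ centralizer (V : Set M)) = ⊥ := by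
  obtain ⟨P⟩ : Nonempty (Sylow p M) := inferInstance
  have hVP : V ≤ (P : Subgroup M) := hVp.le_sylow_of_normal P
  have hPnil : Group.IsNilpotent (P : Subgroup M) := P.isPGroup'.isNilpotent
  have h1 := Lib.NormalAbelian.normal_inf_center_ne_bot (G := (P : Subgroup M))
    (V.subgroupOf (P : Subgroup M)) (by
      intro h
      rw [Subgroup.subgroupOf_eq_bot] at h
      exact hV1 (by rw [← inf_eq_left.2 hVP]; exact h.eq_bot))
  set Z : Set M := (V : Set M) ∩ (centralizer ((P : Subgroup M) : Set M) : Set M) with hZ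
  have hZV : Subgroup.normalClosure Z = V := by
    refine (hmin _ inferInstance ?_).resolve_left ?_
    · exact Subgroup.normalClosure_le_normal (fun x hx => hx.1)
    · intro h
      apply h1
      rw [eq_bot_iff]
      rintro x ⟨hx1, hx2⟩
      have h2 : (x : M) ∈ Subgroup.normalClosure Z := by
        refine Subgroup.subset_normalClosure ⟨hx1, ?_⟩
        rw [SetLike.mem_coe, mem_centralizer_iff]
        intro y hy
        exact congrArg Subtype.val (mem_center_iff.1 hx2 ⟨y, hy⟩)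
      rw [h, mem_bot] at h2
      rw [mem_bot]
      exact Subtype.ext h2
  have h2 := Transfer.ThompsonFactor.pCore_quotient_centralizer_eq_bot P Z
    (fun z hz x hx => mem_centralizer_iff.1 hz.2 x hx)
  have h3 : ∀ (W : Subgroup M) (hW : W.Normal), Subgroup.normalClosure Z = W →
      pCore p (M ⧸ centralizer (W : Set M)) = ⊥ := by
    rintro W hW rfl
    exact h2
  exact h3 V hV hZV

variable {G : Type*} [Group G]

/-- `O_p(M)` as a subgroup of `G`. -/
def core (p : ℕ) (M : Subgroup G) : Subgroup G := (pCore p M).map M.subtype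

theorem core_le (p : ℕ) (M : Subgroup G) : core p M ≤ M := map_subtype_le _

theorem le_normalizer_core (p : ℕ) (M : Subgroup G) : M ≤ normalizer (core p M : Set G) :=
  Lib.LocalCore.le_normalizer_map_pCore p M

theorem core_isPGroup (p : ℕ) (M : Subgroup G) : IsPGroup p (core p M) :=
  Lib.LocalCore.isPGroup_map_pCore p M

/-- Quadratic elements and `p`-stability in a subgroup `M` of `G`. -/
theorem mk_mem_of_quadratic {p : ℕ} {M V : Subgroup G} (hst : IsActionPStable p M)
    (hVM : V ≤ M) [hn : (V.subgroupOf M).Normal] (hV : IsElementaryAbelian p V) {a : G} (ha : a ∈ M)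
    (hq : ⁅⁅V, zpowers a⁆, zpowers a⁆ = ⊥) :
    (QuotientGroup.mk (⟨a, ha⟩ : M) : M ⧸ centralizer ((V.subgroupOf M : Subgroup M) : Set M)) ∈
      pCore p (M ⧸ centralizer ((V.subgroupOf M : Subgroup M) : Set M)) := by
  refine hst.1 (V.subgroupOf M) (isElementaryAbelian_subgroupOf hV M) ⟨a, ha⟩ ?_
  refine (PLocal.StableClosure.quadratic_map_iff (τ := M.subtype) M.subtype_injective).1 ?_
  rw [Subgroup.map_subgroupOf_eq_of_le hVM]
  exact hq

/-- An abelian subgroup of `M` normalized by `O_p(M)` lies in `O_p(M)`, if `M` is `p`-stable of characteristic `p`. -/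
theorem le_core_of_abelian [Finite G] {p : ℕ} [Fact p.Prime] {M W : Subgroup G}
    (hst : IsActionPStable p M) (hc : centralizer (pCore p ↥M : Set ↥M) ≤ pCore p ↥M)
    (hWM : W ≤ M) (hW : ∀ x ∈ W, ∀ y ∈ W, x * y = y * x)
    (hn : core p M ≤ normalizer (W : Set G)) : W ≤ core p M := by
  have h1 : W.subgroupOf M ≤ pCore p M := by
    refine PLocal.StableNormal.le_pCore hst hc ?_ ?_
    · intro x hx y hy
      exact Subtype.ext (hW x hx y hy)
    · intro x hx
      rw [← subgroupOf_normalizer_eq hWM]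
      exact hn ⟨x, hx, rfl⟩
  rw [← Subgroup.map_subgroupOf_eq_of_le hWM]
  exact Subgroup.map_mono h1

/-- **Two `p`-stable groups do not form a primitive pair of characteristic `p`** (`p` odd). -/
theorem false_of_stable [Finite G] {p : ℕ} [Fact p.Prime] (hp : p ≠ 2) (M₁ M₂ : Subgroup G)
    (hne : M₁ ≠ M₂)
    (hP : ∀ A : Subgroup G, A ≠ ⊥ → A ≤ M₁ ⊓ M₂ →
      (M₁ ≤ normalizer (A : Set G) → M₂ ⊓ normalizer (A : Set G) = M₁ ⊓ M₂) ∧
      (M₂ ≤ normalizer (A : Set G) → M₁ ⊓ normalizer (A : Set G) = M₁ ⊓ M₂))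
    (hc₁ : centralizer (pCore p ↥M₁ : Set ↥M₁) ≤ pCore p ↥M₁)
    (hc₂ : centralizer (pCore p ↥M₂ : Set ↥M₂) ≤ pCore p ↥M₂)
    (hO : core p M₁ ⊔ core p M₂ ≤ M₁ ⊓ M₂)
    (hst₁ : IsActionPStable p M₁) (hst₂ : IsActionPStable p M₂) : False := by
  -- a nontrivial subgroup of the intersection normalized by both members is impossible
  have both : ∀ A : Subgroup G, A ≠ ⊥ → A ≤ M₁ ⊓ M₂ → M₁ ≤ normalizer (A : Set G) →
      M₂ ≤ normalizer (A : Set G) → False := by
    intro A hA hAD h1 h2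
    have e1 := (hP A hA hAD).1 h1
    have e2 := (hP A hA hAD).2 h2
    rw [inf_eq_left.2 h2] at e1
    rw [inf_eq_left.2 h1] at e2
    exact hne (e2.trans e1.symm)
  set Q₁ := core p M₁ with hQ₁
  set Q₂ := core p M₂ with hQ₂
  have hQ₁D : Q₁ ≤ M₁ ⊓ M₂ := le_sup_left.trans hO
  have hQ₂D : Q₂ ≤ M₁ ⊓ M₂ := le_sup_right.trans hO
  set Q : Subgroup G := Q₁ ⊔ Q₂ with hQ
  have hQp : IsPGroup p Q := by
    refine IsPGroup.to_sup_of_normal_right' (core_isPGroup p M₁) (core_isPGroup p M₂) ?_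
    exact (hQ₁D.trans inf_le_right).trans (le_normalizer_core p M₂)
  have hDQ : M₁ ⊓ M₂ ≤ normalizer (Q : Set G) := by
    rw [hQ]
    intro x hx
    have h1 := mem_normalizer_iff_map_conj_eq.1 (le_normalizer_core p M₁ hx.1)
    have h2 := mem_normalizer_iff_map_conj_eq.1 (le_normalizer_core p M₂ hx.2)
    rw [mem_normalizer_iff_map_conj_eq, Subgroup.map_sup, h1, h2]
  -- cores are nontrivial
  have hcore : ∀ M : Subgroup G, centralizer (pCore p ↥M : Set ↥M) ≤ pCore p ↥M →
      core p M = ⊥ → M = ⊥ := by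
    intro M hc h
    have h1 : pCore p M = ⊥ := (Subgroup.map_eq_bot_iff_of_injective _ M.subtype_injective).1 h
    rw [h1] at hc
    rw [eq_bot_iff]
    intro x hx
    have h2 : (⟨x, hx⟩ : M) ∈ (⊥ : Subgroup M) := by
      apply hc
      rw [mem_centralizer_iff]
      intro y hy
      rw [SetLike.mem_coe, mem_bot] at hy
      rw [hy, one_mul, mul_one]
    rw [mem_bot] at h2
    exact congrArg Subtype.val h2
  have hQ₁1 : Q₁ ≠ ⊥ := by
    intro h
    have h1 := hcore M₁ hc₁ h
    have h2 : Q₂ = ⊥ := by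
      rw [eq_bot_iff, ← h1]; exact hQ₂D.trans inf_le_left
    exact hne (h1.trans (hcore M₂ hc₂ h2).symm)
  have hQ₂1 : Q₂ ≠ ⊥ := by
    intro h
    have h1 := hcore M₂ hc₂ h
    have h2 : Q₁ = ⊥ := by
      rw [eq_bot_iff, ← h1]; exact hQ₁D.trans inf_le_right
    exact hne ((hcore M₁ hc₁ h2).trans h1.symm)
  -- minimal normal subgroups
  have hmin : ∀ M : Subgroup G, IsActionPStable p M → core p M ≠ ⊥ → ∃ V : Subgroup G, V ≤ core p M ∧
      V ≠ ⊥ ∧ IsElementaryAbelian p V ∧ M ≤ normalizer (V : Set G) ∧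
      ∀ a ∈ M, ⁅⁅V, zpowers a⁆, zpowers a⁆ = ⊥ → a ∈ centralizer (V : Set G) := by
    intro M hst hM1
    have h0 : pCore p M ≠ ⊥ := fun h => hM1 (by rw [core, h, Subgroup.map_bot])
    obtain ⟨V, hVn, hVle, hV1, hVmin⟩ := Lib.SubnormalJoin.exists_minimal_normal_le (pCore p M)
      inferInstance h0
    have hVp : IsPGroup p V := (pCore_isPGroup p).to_le hVle
    have hVe := isElementaryAbelian_of_minimal hVn hVp hV1 hVmin
    have hVo := pCore_quotient_centralizer_of_minimal hVn hVp hV1 hVmin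
    refine ⟨V.map M.subtype, Subgroup.map_mono hVle, ?_, isElementaryAbelian_map hVe _,
      Lib.LocalCore.le_normalizer_map_subtype M V hVn, ?_⟩
    · intro h
      exact hV1 ((Subgroup.map_eq_bot_iff_of_injective _ M.subtype_injective).1 h)
    · intro a ha hq
      have h1 := (PLocal.StableClosure.quadratic_map_iff (τ := M.subtype) M.subtype_injective
        (W := V) (x := ⟨a, ha⟩)).1 hq
      have h2 := hst.1 V hVe ⟨a, ha⟩ h1
      rw [hVo, mem_bot, QuotientGroup.eq_one_iff] at h2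
      rw [mem_centralizer_iff]
      rintro _ ⟨v, hv, rfl⟩
      exact congrArg Subtype.val (mem_centralizer_iff.1 h2 v hv)
  obtain ⟨V₁, hV₁Q, hV₁1, hV₁e, hV₁n, hV₁q⟩ := hmin M₁ hst₁ hQ₁1
  obtain ⟨V₂, hV₂Q, hV₂1, hV₂e, hV₂n, hV₂q⟩ := hmin M₂ hst₂ hQ₂1
  -- `V₂ ≤ Q₁` and `V₁ ≤ Q₂`
  have hV₂Q₁ : V₂ ≤ Q₁ := by
    refine le_core_of_abelian hst₁ hc₁ ((hV₂Q.trans hQ₂D).trans inf_le_left)
      (isElementaryAbelian_iff.1 hV₂e).1 ?_
    exact (hQ₁D.trans inf_le_right).trans hV₂n
  have hV₁Q₂ : V₁ ≤ Q₂ := by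
    refine le_core_of_abelian hst₂ hc₂ ((hV₁Q.trans hQ₁D).trans inf_le_right)
      (isElementaryAbelian_iff.1 hV₁e).1 ?_
    exact (hQ₂D.trans inf_le_left).trans hV₁n
  -- the main step
  have main : ∀ (M N : Subgroup G), IsActionPStable p M → core p M ≤ Q → Q ≤ M →
      M ⊓ N ≤ normalizer (Q : Set G) → ∀ V : Subgroup G, V ≤ core p M →
      IsElementaryAbelian p V → core p M ≤ normalizer (V : Set G) →
      (∀ a ∈ core p M, ⁅⁅V, zpowers a⁆, zpowers a⁆ = ⊥ → a ∈ centralizer (V : Set G)) →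
      M ⊓ normalizer (V : Set G) ≤ N →
      zz p (core p M) = zz p Q := by
    intro M N hst hMQ hQM hMN V hVM hV hVn hVq hVN
    set Z : Subgroup G := zz p (core p M) with hZ
    have hZcore : Z ≤ core p M := zz_le p _
    have hZM : Z ≤ M := hZcore.trans (core_le p M)
    have hZe : IsElementaryAbelian p Z := zz_isElementaryAbelian p _
    have hMZ : M ≤ normalizer (Z : Set G) :=
      (le_normalizer_core p M).trans (normalizer_le_normalizer_zz p _)
    have hVZ : V ≤ Z := le_zz fun A hA =>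
      hA.le_of_no_quadratic hp (core_isPGroup p M) hVM hV hVn hVq
    have hZn : (Z.subgroupOf M).Normal := normal_subgroupOf_of_le_normalizer hMZ
    -- abelian subgroups of `Q` normalized by `Z` lie in `O_p(M)`
    have hab : ∀ A : Subgroup G, A ≤ Q → IsElementaryAbelian p A → Z ≤ normalizer (A : Set G) →
        A ≤ core p M := by
      intro A hAQ hA hZA
      have hAM : A ≤ M := hAQ.trans hQM
      have h1 : A.subgroupOf M ≤ pCore p M := by
        refine le_pCore_of_mod (centralizer ((Z.subgroupOf M : Subgroup M) : Set M))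
          (Q := Q.subgroupOf M) (hQp.of_equiv (subgroupOfEquivOfLe hQM).symm) ?_
          (Subgroup.comap_mono hAQ) ?_
        · intro c hc
          rw [← subgroupOf_normalizer_eq hQM, mem_subgroupOf]
          have h2 : (c : G) ∈ normalizer (V : Set G) := by
            apply centralizer_le_normalizer
            rw [mem_centralizer_iff]
            intro v hv
            exact congrArg Subtype.val (mem_centralizer_iff.1 hc ⟨v, hZM (hVZ hv)⟩ (hVZ hv))
          exact hMN ⟨c.2, hVN ⟨c.2, h2⟩⟩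
        · intro a ha
          refine mk_mem_of_quadratic hst hZM hZe a.2 ?_
          have h2 : zpowers (a : G) ≤ A := zpowers_le.2 ha
          have h3 : ⁅Z, A⁆ ≤ A := le_normalizer_iff_commutator_le_right.1 hZA
          have h4 : ⁅A, A⁆ = ⊥ := by
            rw [commutator_eq_bot_iff_le_centralizer]
            intro x hx
            rw [mem_centralizer_iff]
            intro y hy
            exact isElementaryAbelian_comm hA hy hx
          rw [eq_bot_iff, ← h4]
          exact commutator_mono ((commutator_mono le_rfl h2).trans h3) h2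
      rw [← Subgroup.map_subgroupOf_eq_of_le hAM]
      exact Subgroup.map_mono h1
    refine zz_eq_of_le hMQ ?_
    by_contra hcon
    push Not at hcon
    obtain ⟨A₀, hA₀, hA₀'⟩ := hcon
    obtain ⟨B, ⟨hB, hBQ⟩, hmax⟩ := Set.exists_max_image
      {B : Subgroup G | MaxEl p Q B ∧ ¬ B ≤ core p M}
      (fun B => Nat.card (B ⊓ Z : Subgroup G)) (Set.toFinite _) ⟨A₀, hA₀, hA₀'⟩
    have hZB : ¬ Z ≤ normalizer (B : Set G) := fun h => hBQ (hab B hB.1 hB.2.1 h)
    have hZZ : ⁅Z, Z⁆ = ⊥ := by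
      rw [commutator_eq_bot_iff_le_centralizer]
      intro x hx
      rw [mem_centralizer_iff]
      intro y hy
      exact isElementaryAbelian_comm hZe hy hx
    have hZQ : Z ≤ Q := hZcore.trans hMQ
    obtain ⟨B', hB'le, hB'e, hcard, hlt, hB'n⟩ := PLocal.ReplacementElem.exists_replacement hp
      (A := B) (B := Z) (hQp.to_le (sup_le hB.1 hZQ)) ((hB.1.trans hQM).trans hMZ) hB.2.1
      (by rw [hZZ, commutator_bot_left]) (by rw [hZZ, commutator_bot_left]) hZB
    have hB'Q : B' ≤ Q := hB'le.trans (sup_le hB.1 hZQ)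
    have hB'm : MaxEl p Q B' := hB.of_card_le hB'Q hB'e hcard
    by_cases hc : B' ≤ core p M
    · exact hZB ((zz_le_of_maxEl (hB'm.mono hc hMQ)).trans hB'n)
    · have h1 := hmax B' ⟨hB'm, hc⟩
      have h2 : Nat.card (B ⊓ Z : Subgroup G) < Nat.card (B' ⊓ Z : Subgroup G) := by
        refine lt_of_le_of_ne (Subgroup.card_le_of_le hlt.le) fun h => ?_
        exact hlt.ne (Subgroup.eq_of_le_of_card_ge hlt.le h.ge)
      exact absurd h1 (not_le.2 h2)
  have e1 : zz p Q₁ = zz p Q := by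
    refine main M₁ M₂ hst₁ le_sup_left (sup_le (core_le p M₁) (hQ₂D.trans inf_le_left)) hDQ V₂ hV₂Q₁
      hV₂e ((hQ₁D.trans inf_le_right).trans hV₂n)
      (fun a ha => hV₂q a (hQ₁D ha).2) ?_
    rw [(hP V₂ hV₂1 (hV₂Q.trans hQ₂D)).2 hV₂n]
    exact inf_le_right
  have e2 : zz p Q₂ = zz p Q := by
    refine main M₂ M₁ hst₂ le_sup_right (sup_le (hQ₁D.trans inf_le_right) (core_le p M₂)) ?_ V₁ hV₁Q₂
      hV₁e ((hQ₂D.trans inf_le_left).trans hV₁n)
      (fun a ha => hV₁q a (hQ₂D ha).1) ?_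
    · rw [inf_comm]; exact hDQ
    · rw [(hP V₁ hV₁1 (hV₁Q.trans hQ₁D)).1 hV₁n]
      exact inf_le_left
  have hne' : zz p Q₁ ≠ ⊥ := by
    intro h
    apply hV₂1
    rw [eq_bot_iff, ← h]
    exact le_zz fun A hA => hA.le_of_no_quadratic hp (core_isPGroup p M₁) hV₂Q₁ hV₂e
      ((hQ₁D.trans inf_le_right).trans hV₂n) (fun a ha => hV₂q a (hQ₁D ha).2)
  refine both (zz p Q₁) hne' ((zz_le p _).trans hQ₁D)
    ((le_normalizer_core p M₁).trans (normalizer_le_normalizer_zz p _)) ?_
  rw [e1, ← e2]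
  exact (le_normalizer_core p M₂).trans (normalizer_le_normalizer_zz p _)

end Cfsg.Agent.H443.PrimPair
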